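import Cfsg.Agent.H6.TC.MTwo
import Cfsg.Agent.H140.TC.Fam
import Cfsg.Agent.MonsterP.Equiv
import Cfsg.Agent.BpSpor.MBigEleven

/-!
# The Monster, S4173, S2464: the frame of the row with elements of order 35 (helper6)

* `ev_of_two` : an involution commutes with a conjugate of `z`;
* `frame` : T1 (`hT1`), elements with a power in `2A` (`hA`), elements of odd order (`hO`);
* `tc_m`, `tc6_m` : the row.
-/

set_option autoImplicit false

namespace Cfsg.Agent.H6.TC

open Cfsg Cfsg.Agent.MonsterX Cfsg.Agent.MonsterX.MainPack Cfsg.Agent.MonsterU Cfsg.Agent.MonsterN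
open Cfsg.Agent.MonsterU.Lam2
open Cfsg.Agent.BpSpor.MBigModel (MG zz pi chart finite simple zz_sq cls)
open Cfsg.Agent.H199.NSmMon (Ev)
open Cfsg.Agent.H65.Ore (Prd)
open Cfsg.Spor (Co1)
open Subgroup (centralizer zpowers mem_centralizer_singleton_iff)

theorem ev_of_ta {t : MG} (ht : LThreeB.Row.TA t) : Ev t := by
  have h1 : LThreeB.Row.TA (KDone.K.ι KLinkInst.x₀) := LThreeB.Par.ta_iota LitFin.all KDone.lnk KDone.lft
  have h2 : IsConj (tG LitFin.all.hG LitFin.all.hR) t := ht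
  have h3 : IsConj (tG LitFin.all.hG LitFin.all.hR) (KDone.K.ι KLinkInst.x₀) := h1
  obtain ⟨k, hk⟩ := isConj_iff.1 (h3.symm.trans h2)
  have h4 : (KDone.K.ι KLinkInst.x₀ : MG) * zz = zz * KDone.K.ι KLinkInst.x₀ := chart.large.comm_z _ ⟨_, rfl⟩
  refine ⟨k, ?_⟩
  rw [← hk]
  calc k * zz * k⁻¹ * (k * KDone.K.ι KLinkInst.x₀ * k⁻¹) = k * (zz * KDone.K.ι KLinkInst.x₀) * k⁻¹ := by group
    _ = k * (KDone.K.ι KLinkInst.x₀ * zz) * k⁻¹ := by rw [h4]
    _ = _ := by group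

/-- an involution commutes with a conjugate of `z` -/
theorem ev_of_two {t : MG} (ht : orderOf t = 2) : Ev t := by
  rcases cls ht with ⟨g, hg⟩ | h
  · exact ⟨g, by rw [hg]⟩
  · exact ev_of_ta h

/-- a conjugate of `z` among the powers -/
theorem ev_of_zpowers {t g k : MG} (ht : t ∈ zpowers g) (hk : k * zz * k⁻¹ = t) : Ev g := by
  obtain ⟨i, hi⟩ := Subgroup.mem_zpowers_iff.1 ht
  refine ⟨k, ?_⟩
  rw [hk, ← hi]
  exact ((Commute.refl g).zpow_left i).eq

/-- **The frame.** -/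
theorem frame {x y : centralizer ({zz} : Set MG)} (hx : ∀ v : L2, pi x • v = v → v = 0)
    (hy : ∀ v : L2, pi y • v = v → v = 0)
    (hC : ∀ l : Co1, ∃ u v : Co1, l = (u * pi x * u⁻¹) * (v * pi y * v⁻¹)) {K : ℕ}
    (hT1 : ∀ g : MG, Nat.card ↥(centralizer ({g} : Set MG)) ≤ K → Prd (x : MG) (y : MG) g)
    (hA : ∀ t g : MG, LThreeB.Row.TA t → t ∈ zpowers g → g ≠ t → Ev g ∨ Prd (x : MG) (y : MG) g ∨
      Nat.card ↥(centralizer ({g} : Set MG)) ≤ K)
    (hO : ∀ g : MG, g ≠ 1 → Odd (orderOf g) → ¬ Ev g → Prd (x : MG) (y : MG) g ∨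
      Nat.card ↥(centralizer ({g} : Set MG)) ≤ K) {g : MG} (hg : g ≠ 1) : Prd (x : MG) (y : MG) g := by
  have hfin := finite
  by_cases hev : Ev g
  · exact prd_ev hx hy hC hg hev
  rcases Nat.even_or_odd (orderOf g) with he | ho
  · obtain ⟨m, hm⟩ := he
    have h0 : 0 < orderOf g := orderOf_pos g
    have hm0 : m ≠ 0 := by
      rintro rfl
      omega
    have hv : orderOf (g ^ m) = 2 := by
      rw [orderOf_pow_of_dvd hm0 ⟨2, by omega⟩, hm]
      have : 0 < m := Nat.pos_of_ne_zero hm0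
      rw [← two_mul]
      exact Nat.mul_div_cancel _ this
    have hvg : g ^ m ∈ zpowers g := ⟨(m : ℤ), zpow_natCast g m⟩
    rcases cls hv with ⟨k, hk⟩ | hT
    · exact absurd (ev_of_zpowers hvg hk) hev
    · by_cases hgt : g = g ^ m
      · exact absurd (ev_of_ta (by rw [hgt]; exact hT)) hev
      · rcases hA _ g hT hvg hgt with h | h | h
        · exact absurd h hev
        · exact h
        · exact hT1 g h
  · rcases hO g hg ho hev with h | h
    · exact h
    · exact hT1 g h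

/-- S4173 -/
theorem tc_MG {x y : MG} (h : ∀ g : MG, g ≠ 1 → Prd x y g) : H140.TC.TC MG := ⟨x, y, h⟩

/-- S4173, S2464: transport -/
theorem row_of {x y : MG} (hx : (orderOf x).Coprime 6) (hy : (orderOf y).Coprime 6)
    (h : ∀ g : MG, g ≠ 1 → Prd x y g) {S : Type*} [Group S] (hS : Spor.IsoM S) :
    ∃ a b : S, (orderOf a).Coprime 6 ∧ (orderOf b).Coprime 6 ∧
      ∀ g : S, g ≠ 1 → ∃ u v : S, g = (u * a * u⁻¹) * (v * b * v⁻¹) := by
  obtain ⟨e⟩ := hS
  obtain ⟨f⟩ := Cfsg.Agent.MonsterP.Equiv.equiv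
  obtain ⟨r, -⟩ : ∃ r : S ≃* MG, r = e.trans f := ⟨_, rfl⟩
  have eo : ∀ w : MG, orderOf (r.symm w) = orderOf w := fun w =>
    orderOf_injective (r.symm : MG →* S) r.symm.injective w
  refine ⟨r.symm x, r.symm y, by rwa [eo], by rwa [eo], fun g hg => ?_⟩
  obtain ⟨u, v, e'⟩ := h (r g) (by
    intro h1
    exact hg (r.injective (by rw [h1, map_one])))
  refine ⟨r.symm u, r.symm v, r.injective ?_⟩
  rw [e']
  simp

end Cfsg.Agent.H6.TC
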