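import Cfsg.Agent.H909.PwM.Chart
import Cfsg.Agent.H199.NSmMon
import Cfsg.Agent.H65.Ore.Prd

/-!
# The Monster, S4173, S2464, S2452: the elements commuting with a `2B`-involution (T2, helper6)

* `prd_of_pi` : chart `2^(1+24)`, `Co1`; `g ∈ C(z)`, `pi g ≠ 1` a product of conjugates of `pi x`, `pi y`;
* `prd_of_mem` : `g ∈ Q`, `g ≠ 1, z`;
* `prd_ev` : all `g ≠ 1` of the Monster commuting with a conjugate of `z` are products of a conjugate of `x` and a conjugate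
  of `y` if this is true for all elements of `Co1`.
-/

set_option autoImplicit false

namespace Cfsg.Agent.H6.TC

open Cfsg Cfsg.Spor Cfsg.Agent.MonsterU.Lam2 Cfsg.Agent.MonsterU
open Cfsg.Agent.KFacts.LargeO2 (mem_of_triv)
open Cfsg.Agent.H6.ORE
open Cfsg.Agent.H323.Pw (ES.prod_step_fpf ES.prod_step_left step fpz_cov card_fixZ_le FixZ)
open Cfsg.Agent.H909.PwM (ker_eq fin_sub fix_of)
open Cfsg.Agent.H65.Ore (Prd)

theorem fix_conj {a u a' : Co1} (ha : ∀ v : L2, a • v = v → v = 0) (e : a' = u * a * u⁻¹) (v : L2)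
    (hv : a' • v = v) : v = 0 := by
  have h1 : a • (u⁻¹ • v) = u⁻¹ • v := by
    have h2 : u • (a • (u⁻¹ • v)) = v := by
      rw [← mul_smul, ← mul_smul, ← e, hv]
    rw [← mul_smul, ← eq_inv_smul_iff.2 h2]
    rw [mul_smul]
  have h3 := ha _ h1
  have h4 : u • (u⁻¹ • v) = u • (0 : L2) := by rw [h3]
  rwa [smul_inv_smul, smul_zero] at h4

section chart

variable {M : Type*} [Group M] {Q : Subgroup M} {z : M} {eta : M → L2}
  {pi : Subgroup.centralizer ({z} : Set M) →* Co1}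

theorem not_triv (h : Ch.Chart Q z eta pi) {c : CZ z} (hc : pi c ≠ 1) :
    ∃ y ∈ Q.subgroupOf (CZ z), ¬ (c * y * c⁻¹ = y ∨ c * y * c⁻¹ = y * zC z) := by
  have hfinQ := h.fin
  by_contra hno
  push Not at hno
  apply hc
  rw [h.pi_eq_one]
  apply mem_of_triv h.large (Subgroup.mem_centralizer_singleton_iff.1 c.2)
  intro y hy
  have hyC : y ∈ CZ z := Subgroup.mem_centralizer_singleton_iff.2 (h.large.comm_z y hy)
  exact (hno ⟨y, hyC⟩ hy).imp (congrArg Subtype.val) (congrArg Subtype.val)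

/-- the elements outside `Q` -/
theorem prd_of_pi (h : Ch.Chart Q z eta pi) {x y g : CZ z} (hg : pi g ≠ 1)
    (hx : ∀ v : L2, pi x • v = v → v = 0) (hy : ∀ v : L2, pi y • v = v → v = 0) {u₀ v₀ : Co1}
    (e : pi g = (u₀ * pi x * u₀⁻¹) * (v₀ * pi y * v₀⁻¹)) : Prd (x : M) (y : M) (g : M) := by
  have hE := es_of_large h.large
  have hfinQ := h.fin
  have hfin := fin_sub h
  obtain ⟨u, rfl⟩ := h.pi_surj u₀
  obtain ⟨v, rfl⟩ := h.pi_surj v₀
  obtain ⟨a, ha⟩ : ∃ a, a = u * x * u⁻¹ := ⟨_, rfl⟩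
  obtain ⟨b, hb⟩ : ∃ b, b = v * y * v⁻¹ := ⟨_, rfl⟩
  have hpa : pi a = pi u * pi x * (pi u)⁻¹ := by rw [ha, map_mul, map_mul, map_inv]
  have hpb : pi b = pi v * pi y * (pi v)⁻¹ := by rw [hb, map_mul, map_mul, map_inv]
  have hpab : pi (a * b) = pi g := by rw [map_mul, hpa, hpb, e]
  have hxq : (a * b)⁻¹ * g ∈ Q.subgroupOf (CZ z) := by
    rw [← ker_eq h, MonoidHom.mem_ker, map_mul, map_inv, hpab, inv_mul_cancel]
  obtain ⟨p, -, w, -, e'⟩ := ES.prod_step_fpf hE (fix_of h (fix_conj hx hpa)) (fix_of h (fix_conj hy hpb))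
    (not_triv h (by rw [hpab]; exact hg)) hxq
  rw [mul_inv_cancel_left] at e'
  refine ⟨((p * u : CZ z) : M), ((w * v : CZ z) : M), ?_⟩
  have e2 : g = (p * u) * x * (p * u)⁻¹ * ((w * v) * y * (w * v)⁻¹) := by
    rw [← e', ha, hb]
    group
  exact congrArg Subtype.val e2

/-- the elements of `Q` -/
theorem prd_of_mem (h : Ch.Chart Q z eta pi) {x y : CZ z} (hx : ∀ v : L2, pi x • v = v → v = 0) {u₀ v₀ : Co1}
    (e : (u₀ * pi x * u₀⁻¹) * (v₀ * pi y * v₀⁻¹) = 1) {q : M} (hq : q ∈ Q) (hq1 : q ≠ 1) (hqz : q ≠ z) :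
    Prd (x : M) (y : M) q := by
  have hE := es_of_large h.large
  have hfinQ := h.fin
  have hfin := fin_sub h
  have hEn := hE.normal
  have hEz := hE.normal_zpowers
  obtain ⟨u, rfl⟩ := h.pi_surj u₀
  obtain ⟨v, rfl⟩ := h.pi_surj v₀
  obtain ⟨a, ha⟩ : ∃ a, a = u * x * u⁻¹ := ⟨_, rfl⟩
  obtain ⟨b, hb⟩ : ∃ b, b = v * y * v⁻¹ := ⟨_, rfl⟩
  have hpa : pi a = pi u * pi x * (pi u)⁻¹ := by rw [ha, map_mul, map_mul, map_inv]
  have hpb : pi b = pi v * pi y * (pi v)⁻¹ := by rw [hb, map_mul, map_mul, map_inv]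
  have hpab : pi (a * b) = 1 := by rw [map_mul, hpa, hpb, e]
  have hqC : q ∈ CZ z := Subgroup.mem_centralizer_singleton_iff.2 (h.large.comm_z q hq)
  obtain ⟨g, hg⟩ : ∃ g : CZ z, (g : M) = q := ⟨⟨q, hqC⟩, rfl⟩
  have hgQ : g ∈ Q.subgroupOf (CZ z) := by
    show (g : M) ∈ Q
    rw [hg]; exact hq
  have hxq : (a * b)⁻¹ * g ∈ Q.subgroupOf (CZ z) := by
    refine Subgroup.mul_mem _ (Subgroup.inv_mem _ ?_) hgQ
    rw [← ker_eq h, MonoidHom.mem_ker, hpab]
  obtain ⟨p, -, w, -, e'⟩ := step (fpz_cov hE (FPz.of_left hE b (fix_of h (fix_conj hx hpa)))) hxq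
  rw [mul_inv_cancel_left, hE.mem_zpowers] at e'
  have key : ∀ k : CZ z, k = (p * a * p⁻¹) * (w * b * w⁻¹) → Prd (x : M) (y : M) (k : M) := by
    intro k hk
    refine ⟨((p * u : CZ z) : M), ((w * v : CZ z) : M), ?_⟩
    have e2 : k = (p * u) * x * (p * u)⁻¹ * ((w * v) * y * (w * v)⁻¹) := by
      rw [hk, ha, hb]
      group
    exact congrArg Subtype.val e2
  rcases e' with e' | e'
  · have := key g (inv_mul_eq_one.1 e').symm
    rwa [hg] at this
  · -- `g z` is the product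
    have hk : g * zC z = (p * a * p⁻¹) * (w * b * w⁻¹) := by
      rw [inv_mul_eq_iff_eq_mul] at e'
      rw [e', mul_assoc, hE.sq, mul_one]
    have h1 := key _ hk
    have h2 : ∃ r ∈ Q.subgroupOf (CZ z), g * r ≠ r * g := by
      by_contra hno
      push Not at hno
      rcases hE.nd g hgQ hno with h3 | h3
      · apply hq1
        rw [← hg, h3]
        rfl
      · apply hqz
        rw [← hg, h3]
        rfl
    obtain ⟨r, hr, hgr⟩ := h2
    have h3 := (hE.comm g hgQ r hr).resolve_left hgr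
    -- `r⁻¹ g r = g z`
    have h4 : r * (g * zC z) * r⁻¹ = g := by
      have h5 : g * r = r * (g * zC z) := by rw [h3, mul_assoc]
      rw [← h5]
      group
    have h6 := h1.conj (r : M)
    have h7 : (r : M) * ((g * zC z : CZ z) : M) * (r : M)⁻¹ = q := by
      rw [← hg]
      exact congrArg Subtype.val h4
    rwa [h7] at h6

end chart

section monster

open Cfsg.Agent.BpSpor.MBigModel (MG zz pi chart finite simple zz_sq)
open Cfsg.Agent.H199.NSmMon (Ev)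

/-- the elements of `2^(1+24)` -/
theorem prd_range {x y : Subgroup.centralizer ({zz} : Set MG)} (hx : ∀ v : L2, pi x • v = v → v = 0) {u₀ v₀ : Co1}
    (e : (u₀ * pi x * u₀⁻¹) * (v₀ * pi y * v₀⁻¹) = 1) {q : MG} (hq : q ∈ (Cfsg.Agent.MonsterX.KDone.K.ι).range)
    (hq1 : q ≠ 1) : Prd (x : MG) (y : MG) q := by
  have hfin := finite
  have hs := simple
  by_cases h : q = zz
  · obtain ⟨g, hin, hne, -⟩ := Fused.exists_type_four chart
    rw [h]
    have hne1 : g * zz * g⁻¹ ≠ 1 := by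
      intro h1
      apply hq1
      rw [h]
      exact conj_eq_one_iff.1 h1
    have h1 := (prd_of_mem chart hx e hin hne1 hne).conj g⁻¹
    rwa [show g⁻¹ * (g * zz * g⁻¹) * g⁻¹⁻¹ = zz by group] at h1
  · exact prd_of_mem chart hx e hq hq1 h

/-- **T2 for the Monster.** -/
theorem prd_ev {x y : Subgroup.centralizer ({zz} : Set MG)} (hx : ∀ v : L2, pi x • v = v → v = 0)
    (hy : ∀ v : L2, pi y • v = v → v = 0)
    (hC : ∀ l : Co1, ∃ u v : Co1, l = (u * pi x * u⁻¹) * (v * pi y * v⁻¹)) {g : MG} (hg : g ≠ 1) (h : Ev g) :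
    Prd (x : MG) (y : MG) g := by
  obtain ⟨k, hk⟩ := h
  obtain ⟨g₁, hg₁⟩ : ∃ g₁, g₁ = k⁻¹ * g * k := ⟨_, rfl⟩
  have hgk : g = k * g₁ * k⁻¹ := by rw [hg₁]; group
  have hc : g₁ ∈ Subgroup.centralizer ({zz} : Set MG) := by
    rw [Subgroup.mem_centralizer_singleton_iff, hg₁]
    calc k⁻¹ * g * k * zz = k⁻¹ * (g * (k * zz * k⁻¹)) * k := by group
      _ = k⁻¹ * ((k * zz * k⁻¹) * g) * k := by rw [hk]
      _ = zz * (k⁻¹ * g * k) := by group
  have hne : g₁ ≠ 1 := by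
    rintro rfl
    apply hg
    rw [hgk]
    group
  rw [hgk]
  refine Prd.conj ?_ k
  by_cases h1 : pi ⟨g₁, hc⟩ = 1
  · obtain ⟨u, v, e⟩ := hC 1
    exact prd_range hx e.symm ((chart.pi_eq_one ⟨g₁, hc⟩).1 h1) hne
  · obtain ⟨u, v, e⟩ := hC (pi ⟨g₁, hc⟩)
    exact prd_of_pi chart h1 hx hy e

end monster

end Cfsg.Agent.H6.TC
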